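import Mathlib
import Cfsg.Agent.Lib.LieModel.D42.Iso
import Cfsg.Agent.Lib.MultC.D42.Link
import Cfsg.Agent.Lib.MultC.D42.Ub

/-! The Schur multiplier of the triality twisted group over the field with eight elements is trivial. -/

set_option autoImplicit false

namespace CfsgLib.MultC.D42

theorem mult {K : Type*} [Field K] [Fintype K] (hK : Fintype.card K = 8) :
    Cfsg.HasCyclicSchurMultiplier (Cfsg.Lie.twistedD4 K 2) 1 := by
  obtain ⟨e⟩ := CfsgLib.LieModel.D42.iso hK
  exact CfsgLib.Schur.mult_congr_left (trivial_of_pBound (others model real0 card)) e.symm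

end CfsgLib.MultC.D42
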